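import Cfsg.Agent.Golay.Steiner
import Cfsg.Agent.Golay.Perm
import Cfsg.Agent.Leech.Perm

/-!
The binary permutation module of `M24`: invariant subspaces.
-/

set_option autoImplicit false

open scoped Pointwise symmDiff

namespace CfsgLib.M24Module

open Cfsg

abbrev Word : Type := GolayPt → ZMod 2

/-- Coordinate permutation as a linear map. -/
def act (σ : Equiv.Perm GolayPt) : Word →ₗ[ZMod 2] Word := LinearMap.funLeft _ _ σ.symm

theorem act_apply (σ : Equiv.Perm GolayPt) (w : Word) : act σ w = fun p => w (σ.symm p) := rfl

theorem support₂_act (σ : Equiv.Perm GolayPt) (w : Word) :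
    support₂ (act σ w) = σ • support₂ w := (CfsgLib.Leech.support₂_perm σ w).symm

theorem act_mem_code {σ : Equiv.Perm GolayPt} (hσ : σ ∈ M24) {w : Word} (hw : w ∈ golayCode) :
    act σ w ∈ golayCode := CfsgLib.Leech.M24_isCode hσ hw

/-- `M24` carries any tuple of at most five distinct points to any other. -/
theorem exists_perm {k : ℕ} (hk : k ≤ 5) (f g : Fin k → GolayPt) (hf : Function.Injective f)
    (hg : Function.Injective g) : ∃ σ ∈ M24, ∀ i, σ (f i) = g i := by
  obtain ⟨a, ha, haf⟩ := CfsgLib.Leech.exists_perm_to_base hk f hf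
  obtain ⟨b, hb, hbg⟩ := CfsgLib.Leech.exists_perm_to_base hk g hg
  refine ⟨b⁻¹ * a, mul_mem (inv_mem hb) ha, fun i => ?_⟩
  rw [Equiv.Perm.mul_apply, haf, ← hbg i, Equiv.Perm.inv_def, Equiv.symm_apply_apply]

/-- The octads are permuted transitively. -/
theorem exists_perm_octad {b c : Finset GolayPt} (hb : b ∈ octads) (hc : c ∈ octads) :
    ∃ σ ∈ M24, σ • b = c := by
  have e : ∀ s ∈ octads, ∃ f : Fin 5 → GolayPt, Function.Injective f ∧ ∀ i, f i ∈ s := by
    intro s hs
    obtain ⟨t, hts, ht⟩ := Finset.exists_subset_card_eq (show 5 ≤ s.card by rw [hs.2]; norm_num)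
    refine ⟨fun i => ((t.equivFinOfCardEq ht).symm i : GolayPt), ?_, fun i => hts (Finset.coe_mem _)⟩
    exact fun i j h => (t.equivFinOfCardEq ht).symm.injective (Subtype.ext h)
  obtain ⟨f, hf, hfb⟩ := e b hb
  obtain ⟨g, hg, hgc⟩ := e c hc
  obtain ⟨σ, hσ, hσf⟩ := exists_perm le_rfl f g hf hg
  refine ⟨σ, hσ, CfsgLib.Golay.octad_unique (s := Finset.univ.image g) ?_
    (CfsgLib.Golay.smul_mem_octads hσ hb) hc ?_ ?_⟩
  · rw [Finset.card_image_of_injective _ hg]; rfl
  · intro x hx
    obtain ⟨i, -, rfl⟩ := Finset.mem_image.mp hx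
    rw [← hσf i]
    exact Finset.smul_mem_smul_finset (hfb i)
  · intro x hx
    obtain ⟨i, -, rfl⟩ := Finset.mem_image.mp hx
    exact hgc i

/-- A subspace stable under `M24`. -/
def IsInvariantSubspace (W : Submodule (ZMod 2) Word) : Prop :=
  ∀ σ ∈ M24, ∀ w ∈ W, act σ w ∈ W

/-- An invariant subspace containing an octad contains the code. -/
theorem code_le_of_octad {U : Submodule (ZMod 2) Word} (hU : IsInvariantSubspace U) {c : Word}
    (hc : c ∈ U) (ho : support₂ c ∈ octads) : golayCode ≤ U := by
  have hall : ∀ b ∈ octads, CfsgLib.Golay.wordOf b ∈ U := by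
    intro b hb
    obtain ⟨σ, hσ, hσb⟩ := exists_perm_octad ho hb
    have : CfsgLib.Golay.wordOf b = act σ c := CfsgLib.Golay.support₂_injective (by
      rw [CfsgLib.Golay.support₂_wordOf, support₂_act, hσb])
    rw [this]
    exact hU σ hσ c hc
  have hbasis : ∀ b ∈ CfsgLib.Golay.basisMasks,
      CfsgLib.Golay.wordOf (CfsgLib.Golay.ofMask b) ∈ U := by
    intro b hb
    refine hall _ ⟨?_, ?_⟩
    · exact CfsgLib.Golay.mem_supports_iff_wordOf.mpr (CfsgLib.Golay.basis_mem b hb)
    · rw [← CfsgLib.Golay.pop_eq_card]
      revert b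
      decide +kernel
  have hcomb : ∀ l : List ℕ, (∀ b ∈ l, CfsgLib.Golay.wordOf (CfsgLib.Golay.ofMask b) ∈ U) →
      ∀ i : ℕ, CfsgLib.Golay.wordOf (CfsgLib.Golay.ofMask (CfsgLib.Golay.comb l i)) ∈ U := by
    intro l
    induction l with
    | nil =>
      intro _ i
      rw [CfsgLib.Golay.comb, CfsgLib.Golay.ofMask_zero]
      convert U.zero_mem using 1
      funext p; simp [CfsgLib.Golay.wordOf]
    | cons b l ih =>
      intro h i
      rw [CfsgLib.Golay.comb, CfsgLib.Golay.wordOf_ofMask_xor]
      refine U.add_mem ?_ (ih (fun x hx => h x (List.mem_cons_of_mem _ hx)) _)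
      split
      · exact h b List.mem_cons_self
      · rw [CfsgLib.Golay.ofMask_zero]
        convert U.zero_mem using 1
        funext p; simp [CfsgLib.Golay.wordOf]
  intro w hw
  obtain ⟨i, -, e⟩ := CfsgLib.Golay.inCode_iff.mp (CfsgLib.Golay.mem_golayCode_iff.mp hw)
  have := hcomb _ hbasis i
  rw [← CfsgLib.Golay.word, e, CfsgLib.Golay.ofMask_toMask, CfsgLib.Golay.wordOf_support₂] at this
  exact this

theorem zmod2_cases : ∀ z : ZMod 2, z = 0 ∨ z = 1 := by decide

theorem add_self_word (w : Word) : w + w = 0 := by
  funext p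
  exact CharTwo.add_self_eq_zero _

theorem mem_span_one {w : Word} :
    w ∈ Submodule.span (ZMod 2) {fun _ => (1 : ZMod 2)} ↔ w = 0 ∨ w = 1 := by
  rw [Submodule.mem_span_singleton]
  constructor
  · rintro ⟨a, rfl⟩
    rcases zmod2_cases a with rfl | rfl
    · exact Or.inl (zero_smul _ _)
    · exact Or.inr (one_smul _ _)
  · rintro (rfl | rfl)
    · exact ⟨0, zero_smul _ _⟩
    · exact ⟨1, one_smul _ _⟩

theorem support₂_card_eq_24 {w : Word} (h : (support₂ w).card = 24) : w = 1 := by
  have h' : support₂ w = Finset.univ := Finset.eq_univ_of_card _ (by rw [h]; rfl)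
  exact CfsgLib.Golay.support₂_injective (h'.trans CfsgLib.Golay.support₂_one.symm)

theorem support₂_card_eq_zero {w : Word} (h : (support₂ w).card = 0) : w = 0 :=
  CfsgLib.Golay.support₂_injective
    ((Finset.card_eq_zero.mp h).trans CfsgLib.Golay.support₂_zero.symm)

/-- An invariant subcode with a word other than `0, 1` is the whole code. -/
theorem eq_code_of_le {U : Submodule (ZMod 2) Word} (hU : IsInvariantSubspace U) (hUC : U ≤ golayCode)
    (hne : ¬ U ≤ Submodule.span (ZMod 2) {fun _ => (1 : ZMod 2)}) : U = golayCode := by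
  classical
  refine le_antisymm hUC ?_
  obtain ⟨c, hcU, hc⟩ := Set.not_subset.mp hne
  rw [SetLike.mem_coe, mem_span_one, not_or] at hc
  by_cases h8 : ∃ w ∈ U, (support₂ w).card = 8
  · obtain ⟨w, hw, hw8⟩ := h8
    exact code_le_of_octad hU hw ⟨⟨w, hUC hw, rfl⟩, hw8⟩
  push Not at h8
  exfalso
  have hrot : ∀ p q : GolayPt, p ≠ q → ∃ w ∈ U, w p ≠ w q := by
    intro p q hpq
    by_contra hcon
    push Not at hcon
    have hall : ∀ a b : GolayPt, c a = c b := by
      intro a b
      by_cases hab : a = b
      · rw [hab]
      obtain ⟨σ, hσ, hσf⟩ := exists_perm (k := 2) (by norm_num) ![a, b] ![p, q]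
        (by intro i j; fin_cases i <;> fin_cases j <;> simp [hab, Ne.symm hab])
        (by intro i j; fin_cases i <;> fin_cases j <;> simp [hpq, Ne.symm hpq])
      have h := hcon _ (hU σ hσ c hcU)
      rw [act_apply] at h
      simp only at h
      have e0 : σ.symm p = a := Equiv.symm_apply_eq (e := σ) |>.mpr (hσf 0).symm
      have e1 : σ.symm q = b := Equiv.symm_apply_eq (e := σ) |>.mpr (hσf 1).symm
      rwa [e0, e1] at h
    rcases zmod2_cases (c none) with h | h
    · exact hc.1 (funext fun a => by rw [hall a none, h]; rfl)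
    · exact hc.2 (funext fun a => by rw [hall a none, h]; rfl)
  set S : Finset Word := Finset.univ.filter fun w => w ∈ U with hS
  have hSmem : ∀ w, w ∈ S ↔ w ∈ U := fun w => by simp [hS]
  have hhalf : ∀ p q : GolayPt, p ≠ q →
      2 * (S.filter fun w => w p ≠ w q).card = S.card := by
    intro p q hpq
    obtain ⟨v, hv, hvpq⟩ := hrot p q hpq
    have hsplit := Finset.card_filter_add_card_filter_not (s := S) (p := fun w => w p ≠ w q)
    have hflip : (S.filter fun w => w p ≠ w q).card = (S.filter fun w => ¬ w p ≠ w q).card := by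
      apply Finset.card_nbij' (fun w => w + v) (fun w => w + v)
      · intro w hw
        simp only [Finset.coe_filter, Set.mem_ofPred_eq, hSmem] at hw ⊢
        refine ⟨U.add_mem hw.1 hv, ?_⟩
        simp only [Pi.add_apply, ne_eq, not_not]
        revert hvpq; have := hw.2; revert this
        generalize w p = a; generalize w q = b; generalize v p = x; generalize v q = y
        revert a b x y; decide
      · intro w hw
        simp only [Finset.coe_filter, Set.mem_ofPred_eq, hSmem, ne_eq, not_not] at hw ⊢
        refine ⟨U.add_mem hw.1 hv, ?_⟩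
        simp only [Pi.add_apply]
        revert hvpq; have := hw.2; revert this
        generalize w p = a; generalize w q = b; generalize v p = x; generalize v q = y
        revert a b x y; decide
      · intro w _; simp [add_assoc, add_self_word]
      · intro w _; simp [add_assoc, add_self_word]
    omega
  set P : Finset (GolayPt × GolayPt) := Finset.univ.filter fun x => x.1 ≠ x.2
  have hP : P.card = 552 := by decide +kernel
  have hR : 2 * ∑ x ∈ P, (S.filter fun w => w x.1 ≠ w x.2).card = 552 * S.card := by
    rw [Finset.mul_sum, Finset.sum_congr rfl fun x hx =>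
      hhalf x.1 x.2 (Finset.mem_filter.mp hx).2, Finset.sum_const, hP, smul_eq_mul]
  have hL : ∀ w ∈ S, (P.filter fun x => w x.1 ≠ w x.2).card =
      if w = 0 ∨ w = 1 then 0 else 288 := by
    intro w hw
    have hwU := (hSmem w).mp hw
    split
    · rename_i h
      rcases h with rfl | rfl <;> simp
    · rename_i h
      rw [not_or] at h
      have hcard : (support₂ w).card = 12 := by
        rcases CfsgLib.Leech.weight_values (hUC hwU) with e | e | e | e | e
        · exact absurd (support₂_card_eq_zero e) h.1
        · exact absurd e (h8 w hwU)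
        · exact e
        · exfalso
          have h1 : ∃ u ∈ U, (support₂ u).card = 8 := by
            -- two translates of a 16-word sum to a word of weight 8
            obtain ⟨o, ho, hwo⟩ : ∃ o ∈ octads, support₂ w = oᶜ := by
              refine ⟨(support₂ w)ᶜ, ⟨CfsgLib.Golay.compl_mem ⟨w, hUC hwU, rfl⟩, ?_⟩, (compl_compl _).symm⟩
              rw [Finset.card_compl, e]; rfl
            obtain ⟨t, hto, ht⟩ := Finset.exists_subset_card_eq
              (show 4 ≤ o.card by rw [ho.2]; norm_num)
            have : ∃ x, x ∉ o := ⟨_, (Finset.exists_mem_notMem_of_card_lt_card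
              (show o.card < (Finset.univ : Finset GolayPt).card by rw [ho.2]; decide)).choose_spec.2⟩
            obtain ⟨x, hx⟩ := this
            obtain ⟨o', ho', hto'⟩ := CfsgLib.Golay.exists_octad_superset
              (show (insert x t).card = 5 by
                rw [Finset.card_insert_of_notMem (fun h => hx (hto h)), ht])
            obtain ⟨σ, hσ, hσo⟩ := exists_perm_octad ho ho'
            refine ⟨w + act σ w, U.add_mem hwU (hU σ hσ w hwU), ?_⟩
            rw [CfsgLib.Golay.support₂_add, support₂_act, hwo]
            have hσc : σ • oᶜ = o'ᶜ := by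
              rw [← hσo]
              ext z
              simp [← Finset.inv_smul_mem_iff]
            rw [hσc]
            have hcc : oᶜ ∆ o'ᶜ = o ∆ o' := by
              ext z; simp [Finset.mem_symmDiff, and_comm, or_comm]
            rw [hcc]
            have h4 : 4 ≤ (o ∩ o').card := by
              rw [← ht]
              exact Finset.card_le_card (Finset.subset_inter hto
                ((Finset.subset_insert x t).trans hto'))
            have hne' : o ≠ o' := fun h => hx (h ▸ hto' (Finset.mem_insert_self x t))
            have := CfsgLib.Golay.octad_inter ho ho' hne'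
            have := CfsgLib.Golay.card_symmDiff_add o o'
            have := ho.2; have := ho'.2
            omega
          obtain ⟨u, hu, hu8⟩ := h1
          exact h8 u hu hu8
        · exact absurd (support₂_card_eq_24 e) h.2
      have : (P.filter fun x => w x.1 ≠ w x.2) =
          (support₂ w ×ˢ (support₂ w)ᶜ) ∪ ((support₂ w)ᶜ ×ˢ support₂ w) := by
        ext ⟨a, b⟩
        simp only [P, Finset.mem_filter, Finset.mem_univ, true_and, Finset.mem_union,
          Finset.mem_product, Finset.mem_compl, support₂]
        constructor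
        · rintro ⟨-, hab⟩
          rcases zmod2_cases (w a) with ha | ha <;> rcases zmod2_cases (w b) with hb | hb <;>
            simp_all
        · intro hab
          rcases zmod2_cases (w a) with ha | ha <;> rcases zmod2_cases (w b) with hb | hb <;>
            simp_all
          all_goals intro e; subst e; simp_all
      rw [this, Finset.card_union_of_disjoint, Finset.card_product, Finset.card_product,
        Finset.card_compl, hcard]
      · rfl
      · rw [Finset.disjoint_left]
        rintro ⟨a, b⟩ h1 h2
        simp only [Finset.mem_product, Finset.mem_compl] at h1 h2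
        exact h2.1 h1.1
  have hswap : ∑ x ∈ P, (S.filter fun w => w x.1 ≠ w x.2).card =
      ∑ w ∈ S, (P.filter fun x => w x.1 ≠ w x.2).card :=
    Finset.sum_card_bipartiteAbove_eq_sum_card_bipartiteBelow
      (fun (x : GolayPt × GolayPt) (w : Word) => w x.1 ≠ w x.2)
  rw [hswap, Finset.sum_congr rfl hL, Finset.sum_ite, Finset.sum_const_zero, zero_add,
    Finset.sum_const, smul_eq_mul] at hR
  set e := (S.filter fun w => w = 0 ∨ w = 1).card
  have hsplit : e + (S.filter fun w => ¬(w = 0 ∨ w = 1)).card = S.card :=
    Finset.card_filter_add_card_filter_not _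
  have he1 : e ≤ 2 := le_trans (Finset.card_le_card (t := ({0, 1} : Finset Word))
    fun w hw => by simpa using (Finset.mem_filter.mp hw).2) Finset.card_le_two
  have hSU : S.card = Nat.card U := by
    rw [Nat.card_eq_fintype_card, Fintype.card_subtype]
  have hpow : Nat.card U = 2 ^ Module.finrank (ZMod 2) U := by
    rw [Module.natCard_eq_pow_finrank (K := ZMod 2)]; simp
  have hdim : Module.finrank (ZMod 2) U ≤ 24 := by
    have := Submodule.finrank_le U
    rwa [Module.finrank_fintype_fun_eq_card] at this
  have he0 : 1 ≤ e := Finset.card_pos.mpr ⟨0, by simp [hSmem]⟩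
  generalize Module.finrank (ZMod 2) U = n at hpow hdim
  rw [hSU, hpow] at hR hsplit
  have : n ≤ 5 → False := by
    intro hn
    interval_cases n <;> omega
  have hn : 2 ^ n ≤ 48 := by omega
  exact this (by
    by_contra h
    have := Nat.pow_le_pow_right (show 0 < 2 by norm_num) (show 6 ≤ n by omega)
    omega)

theorem dot₂_act (σ : Equiv.Perm GolayPt) (v w : Word) :
    CfsgLib.Leech.dot₂ (act σ v) (act σ w) = CfsgLib.Leech.dot₂ v w := by
  rw [CfsgLib.Leech.dot₂_apply, CfsgLib.Leech.dot₂_apply]
  exact Equiv.sum_comp σ.symm (fun p => v p * w p)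

theorem dot₂_one (w : Word) : CfsgLib.Leech.dot₂ 1 w = ∑ p, w p := by
  simp [CfsgLib.Leech.dot₂_apply, -Fintype.sum_option]

/-- An invariant subspace containing the code. -/
theorem cases_of_code_le {W : Submodule (ZMod 2) Word} (hW : IsInvariantSubspace W)
    (hCW : golayCode ≤ W) :
    W = golayCode ∨ (W : Set Word) = {w | ∑ p, w p = 0} ∨ W = ⊤ := by
  let B : LinearMap.BilinForm (ZMod 2) Word := CfsgLib.Leech.dot₂
  have hrefl : B.IsRefl := fun x y h => by
    show CfsgLib.Leech.dot₂ y x = 0
    rw [CfsgLib.Leech.dot₂_comm]; exact h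
  have hnd : B.Nondegenerate := by
    refine (LinearMap.IsRefl.nondegenerate_iff_separatingLeft hrefl).mpr ?_
    intro x hx
    funext p
    have := hx (Pi.single p 1)
    simpa [B, CfsgLib.Leech.dot₂_apply, Pi.single_apply] using this
  set W' := B.orthogonal W with hW'
  have hW'C : W' ≤ golayCode := by
    intro x hx
    rw [LinearMap.BilinForm.mem_orthogonal_iff] at hx
    exact (CfsgLib.Leech.mem_code_iff x).mpr
      ⟨fun t => hx _ (hCW (CfsgLib.Leech.qrWord_mem_code t)), hx _ (hCW CfsgLib.Leech.one_mem_code)⟩
  have hW'inv : IsInvariantSubspace W' := by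
    intro σ hσ x hx
    rw [LinearMap.BilinForm.mem_orthogonal_iff] at hx ⊢
    intro w hw
    show CfsgLib.Leech.dot₂ w (act σ x) = 0
    have e : act σ (act σ⁻¹ w) = w := by
      funext p; simp [act_apply, Equiv.Perm.inv_def]
    rw [← e, dot₂_act]
    exact hx _ (hW σ⁻¹ (inv_mem hσ) w hw)
  have hback : B.orthogonal W' = W := B.orthogonal_orthogonal hnd hrefl W
  by_cases hne : W' ≤ Submodule.span (ZMod 2) {fun _ => (1 : ZMod 2)}
  · right
    by_cases h1 : (1 : Word) ∈ W'
    · left
      ext w
      rw [SetLike.mem_coe, ← hback, LinearMap.BilinForm.mem_orthogonal_iff, Set.mem_ofPred_eq]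
      constructor
      · intro h
        rw [← dot₂_one]; exact h 1 h1
      · intro h v hv
        rcases mem_span_one.mp (hne hv) with rfl | rfl
        · exact LinearMap.BilinForm.zero_left (B := B) w
        · show CfsgLib.Leech.dot₂ 1 w = 0
          rwa [dot₂_one]
    · right
      rw [← hback, eq_top_iff]
      intro w _
      rw [LinearMap.BilinForm.mem_orthogonal_iff]
      intro v hv
      rcases mem_span_one.mp (hne hv) with rfl | rfl
      · exact LinearMap.BilinForm.zero_left (B := B) w
      · exact absurd hv h1
  · left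
    have hfull := eq_code_of_le hW'inv hW'C hne
    refine le_antisymm ?_ hCW
    intro w hw
    refine (CfsgLib.Leech.mem_code_iff w).mpr ⟨fun t => ?_, ?_⟩
    · rw [CfsgLib.Leech.dot₂_comm]
      exact LinearMap.BilinForm.mem_orthogonal_iff.mp
        (hfull ▸ CfsgLib.Leech.qrWord_mem_code t : qrWord t ∈ W') w hw
    · rw [CfsgLib.Leech.dot₂_comm]
      exact LinearMap.BilinForm.mem_orthogonal_iff.mp
        (hfull ▸ CfsgLib.Leech.one_mem_code : (1 : Word) ∈ W') w hw

/-- The word of a pair of points. -/
def pair (p q : GolayPt) : Word := Pi.single p 1 + Pi.single q 1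

theorem act_single (σ : Equiv.Perm GolayPt) (p : GolayPt) :
    act σ (Pi.single p 1) = Pi.single (σ p) 1 := by
  funext x
  simp [act_apply, Pi.single_apply, Equiv.symm_apply_eq]

theorem act_pair (σ : Equiv.Perm GolayPt) (p q : GolayPt) :
    act σ (pair p q) = pair (σ p) (σ q) := by
  rw [pair, map_add, act_single, act_single]; rfl

theorem act_one (σ : Equiv.Perm GolayPt) : act σ 1 = 1 := rfl

/-- An invariant subspace meeting the code in at most `⟨1⟩` cannot supplement it to the even
words. -/
theorem inf_code_not_le_span {W : Submodule (ZMod 2) Word} (hW : IsInvariantSubspace W)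
    (hE : ∀ w : Word, ∑ p, w p = 0 → w ∈ W ⊔ golayCode) :
    ¬ W ⊓ golayCode ≤ Submodule.span (ZMod 2) {fun _ => (1 : ZMod 2)} := by
  classical
  intro hsmall
  -- each pair, or its complement, lies in W
  have key : ∀ p q : GolayPt, p ≠ q → pair p q ∈ W ∨ pair p q + 1 ∈ W := by
    intro p q hpq
    obtain ⟨w, hw, c, hc, hwc⟩ := Submodule.mem_sup.mp (hE (pair p q) (by
      simp [pair, Pi.single_apply, Finset.sum_add_distrib, -Fintype.sum_option]
      decide))
    have hw' : w = pair p q + c := by
      rw [← hwc, add_assoc, add_self_word, add_zero]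
    have hfix : ∀ σ ∈ M24, σ p = p → σ q = q → act σ c = c ∨ act σ c = c + 1 := by
      intro σ hσ hp hq
      have hmem : act σ c + c ∈ W ⊓ golayCode := by
        refine ⟨?_, golayCode.add_mem (act_mem_code hσ hc) hc⟩
        have e : act σ c + c = act σ w + w := by
          have : act σ w = pair p q + act σ c := by rw [hw', map_add, act_pair, hp, hq]
          rw [this, hw']
          calc act σ c + c = (pair p q + pair p q) + (act σ c + c) := by
                rw [add_self_word, zero_add]
            _ = _ := by abel
        rw [e]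
        exact W.add_mem (hW σ hσ w hw) hw
      rcases mem_span_one.mp (hsmall hmem) with h | h
      · left
        calc act σ c = act σ c + (c + c) := by rw [add_self_word, add_zero]
          _ = c := by rw [← add_assoc, h, zero_add]
      · right
        calc act σ c = act σ c + (c + c) := by rw [add_self_word, add_zero]
          _ = c + 1 := by rw [← add_assoc, h, add_comm]
    by_cases hc01 : c = 0 ∨ c = 1
    · rcases hc01 with rfl | rfl
      · exact Or.inl (by rw [add_zero] at hw'; exact hw' ▸ hw)
      · exact Or.inr (hw' ▸ hw)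
    · exfalso
      rw [not_or] at hc01
      set A := support₂ c \ {p, q} with hA
      set Z := (support₂ c)ᶜ \ {p, q} with hZ
      have hbd : 8 ≤ (support₂ c).card ∧ (support₂ c).card ≤ 16 := by
        rcases CfsgLib.Leech.weight_values hc with e | e | e | e | e
        · exact absurd (support₂_card_eq_zero e) hc01.1
        · omega
        · omega
        · omega
        · exact absurd (support₂_card_eq_24 e) hc01.2
      have hpair : ({p, q} : Finset GolayPt).card ≤ 2 := Finset.card_le_two
      have hA2 : 1 < A.card := by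
        have := Finset.le_card_sdiff ({p, q} : Finset GolayPt) (support₂ c)
        rw [← hA] at this; omega
      have hZ1 : 0 < Z.card := by
        have := Finset.le_card_sdiff ({p, q} : Finset GolayPt) (support₂ c)ᶜ
        rw [← hZ, Finset.card_compl, show Fintype.card GolayPt = 24 from rfl] at this
        omega
      obtain ⟨a, ha, b, hb, hab⟩ := Finset.one_lt_card.mp hA2
      obtain ⟨z, hz⟩ := Finset.card_pos.mp hZ1
      simp only [hA, hZ, Finset.mem_sdiff, Finset.mem_compl, Finset.mem_insert,
        Finset.mem_singleton, not_or] at ha hb hz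
      have hca : c a = 1 := (zmod2_cases _).resolve_left (by simpa [support₂] using ha.1)
      have hcb : c b = 1 := (zmod2_cases _).resolve_left (by simpa [support₂] using hb.1)
      have hcz : c z = 0 := by simpa [support₂] using hz.1
      have haz : a ≠ z := fun h => by rw [h, hcz] at hca; exact zero_ne_one hca
      obtain ⟨σ, hσ, hσf⟩ := exists_perm (k := 4) (by norm_num) ![p, q, a, b] ![p, q, a, z]
        (by intro i j; fin_cases i <;> fin_cases j <;>
          simp [hpq, Ne.symm hpq, ha.2.1, ha.2.2, Ne.symm ha.2.1, Ne.symm ha.2.2, hb.2.1, hb.2.2,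
            Ne.symm hb.2.1, Ne.symm hb.2.2, hab, Ne.symm hab])
        (by intro i j; fin_cases i <;> fin_cases j <;>
          simp [hpq, Ne.symm hpq, ha.2.1, ha.2.2, Ne.symm ha.2.1, Ne.symm ha.2.2, hz.2.1, hz.2.2,
            Ne.symm hz.2.1, Ne.symm hz.2.2, haz, Ne.symm haz])
      have sa : σ.symm a = a := Equiv.symm_apply_eq (e := σ) |>.mpr (hσf 2).symm
      have sz : σ.symm z = b := Equiv.symm_apply_eq (e := σ) |>.mpr (hσf 3).symm
      rcases hfix σ hσ (hσf 0) (hσf 1) with h | h
      · have := congrFun h z
        rw [act_apply] at this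
        simp only [sz, hcb, hcz] at this
        exact one_ne_zero this
      · have := congrFun h a
        rw [act_apply] at this
        simp only [sa, hca, Pi.add_apply, Pi.one_apply] at this
        exact absurd this (by decide)
  -- hence every pair lies in W
  have hall : ∀ p q : GolayPt, p ≠ q → pair p q ∈ W := by
    intro p q hpq
    rcases key p q hpq with h | h
    · exact h
    have htrans : ∀ x y : GolayPt, x ≠ y → pair x y + 1 ∈ W := by
      intro x y hxy
      obtain ⟨σ, hσ, hσf⟩ := exists_perm (k := 2) (by norm_num) ![p, q] ![x, y]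
        (by intro i j; fin_cases i <;> fin_cases j <;> simp [hpq, Ne.symm hpq])
        (by intro i j; fin_cases i <;> fin_cases j <;> simp [hxy, Ne.symm hxy])
      have := hW σ hσ _ h
      rw [map_add, act_pair, act_one] at this
      have e0 : σ p = x := hσf 0
      have e1 : σ q = y := hσf 1
      rwa [e0, e1] at this
    obtain ⟨r, hr⟩ : ∃ r, r ∉ ({p, q} : Finset GolayPt) :=
      ⟨_, (Finset.exists_mem_notMem_of_card_lt_card
        (show ({p, q} : Finset GolayPt).card < (Finset.univ : Finset GolayPt).card from
          lt_of_le_of_lt Finset.card_le_two (by decide))).choose_spec.2⟩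
    simp only [Finset.mem_insert, Finset.mem_singleton, not_or] at hr
    have h1 : (1 : Word) ∈ W := by
      have := W.add_mem (W.add_mem h (htrans q r (Ne.symm hr.2))) (htrans p r (Ne.symm hr.1))
      rwa [show pair p q + 1 + (pair q r + 1) + (pair p r + 1) =
        (Pi.single p 1 + Pi.single p 1) + (Pi.single q 1 + Pi.single q 1)
          + (Pi.single r 1 + Pi.single r 1) + ((1 + 1) + 1) by simp only [pair]; abel,
        add_self_word, add_self_word, add_self_word, add_self_word, zero_add, zero_add] at this
    have := W.add_mem h h1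
    rwa [add_assoc, add_self_word, add_zero] at this
  -- so W contains an octad
  have hEW : ∀ w : Word, ∑ p, w p = 0 → w ∈ W := by
    intro w hw
    have : w = ∑ p, w p • pair p none := by
      simp only [pair, smul_add, Finset.sum_add_distrib, ← Finset.sum_smul, hw, zero_smul, add_zero]
      conv_lhs => rw [pi_eq_sum_univ' w]
    rw [this]
    refine W.sum_mem fun p _ => W.smul_mem _ ?_
    by_cases hp : p = none
    · subst hp; rw [pair, add_self_word]; exact W.zero_mem
    · exact hall p none hp
  obtain ⟨b, hb, -⟩ := CfsgLib.Golay.exists_octad_superset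
    (s := {none, some 0, some 1, some 2, some 3}) (by decide)
  have hbc : CfsgLib.Golay.wordOf b ∈ golayCode := CfsgLib.Golay.mem_supports_iff_wordOf.mp hb.1
  have hbW : CfsgLib.Golay.wordOf b ∈ W := by
    refine hEW _ ?_
    rw [← dot₂_one, CfsgLib.Leech.dot₂_comm]
    exact CfsgLib.Leech.code_orth hbc CfsgLib.Leech.one_mem_code
  have h8 : (support₂ (CfsgLib.Golay.wordOf b)).card = 8 := by
    rw [CfsgLib.Golay.support₂_wordOf]; exact hb.2
  rcases mem_span_one.mp (hsmall ⟨hbW, hbc⟩) with h | h
  · rw [h, CfsgLib.Golay.support₂_zero] at h8; simp at h8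
  · rw [h, CfsgLib.Golay.support₂_one] at h8; exact absurd h8 (by decide)

/-- The invariant subspaces of the binary permutation module of `M24`. -/
theorem invariant_cases {W : Submodule (ZMod 2) Word} (hW : IsInvariantSubspace W) :
    W = ⊥ ∨ W = Submodule.span (ZMod 2) {fun _ => (1 : ZMod 2)} ∨ W = golayCode ∨
      (W : Set Word) = {w | ∑ p, w p = 0} ∨ W = ⊤ := by
  have hinf : IsInvariantSubspace (W ⊓ golayCode) := fun σ hσ w hw =>
    ⟨hW σ hσ w hw.1, act_mem_code hσ hw.2⟩
  by_cases hne : W ⊓ golayCode ≤ Submodule.span (ZMod 2) {fun _ => (1 : ZMod 2)}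
  · have hsup : IsInvariantSubspace (W ⊔ golayCode) := by
      intro σ hσ x hx
      obtain ⟨a, ha, b, hb, rfl⟩ := Submodule.mem_sup.mp hx
      rw [map_add]
      exact Submodule.add_mem_sup (hW σ hσ a ha) (act_mem_code hσ hb)
    rcases cases_of_code_le hsup le_sup_right with h | h | h
    · have hWC : W ≤ golayCode := le_sup_left.trans h.le
      rw [inf_eq_left.mpr hWC] at hne
      by_cases h1 : (1 : Word) ∈ W
      · refine Or.inr (Or.inl (le_antisymm hne ?_))
        rw [Submodule.span_le, Set.singleton_subset_iff]
        exact h1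
      · refine Or.inl ((Submodule.eq_bot_iff W).mpr fun w hw => ?_)
        rcases mem_span_one.mp (hne hw) with rfl | rfl
        · rfl
        · exact absurd hw h1
    · exact absurd hne (inf_code_not_le_span hW fun w hw => h.ge hw)
    · exact absurd hne (inf_code_not_le_span hW fun w _ => by rw [h]; trivial)
  · have hC := eq_code_of_le hinf inf_le_right hne
    rcases cases_of_code_le hW (inf_eq_right.mp hC) with h | h | h
    · exact Or.inr (Or.inr (Or.inl h))
    · exact Or.inr (Or.inr (Or.inr (Or.inl h)))
    · exact Or.inr (Or.inr (Or.inr (Or.inr h)))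

end CfsgLib.M24Module
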