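import Cfsg.Agent.M24Module.Basic
import Cfsg.Agent.M24Module.InvData

/-!
The stabiliser of a code word fixes no non-zero coset of the code.
-/

set_option autoImplicit false

open scoped Pointwise symmDiff

namespace CfsgLib.M24Module

open Cfsg

/-- The permutation given by a list of transpositions. -/
def swaps : List (Fin 24 × Fin 24) → Equiv.Perm GolayPt
  | [] => 1
  | x :: l => Equiv.swap (CfsgLib.Golay.pt x.1) (CfsgLib.Golay.pt x.2) * swaps l

/-- The short cocode representatives. -/
def repMask : Fin 4 → ℕ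
  | ⟨0, _⟩ => 8388608
  | ⟨1, _⟩ => 8388609
  | ⟨2, _⟩ => 8388611
  | ⟨3, _⟩ => 8388615

/-- The named involution fixes the word. -/
def covered (k : Fin 4) (n : ℕ) : Bool :=
  match (invData k)[(witData k >>> (6 * (n % 4096))) % 64]? with
  | some l => l.all fun x => n.testBit x.1.val == n.testBit x.2.val
  | none => false

/-- The transposition of two bits. -/
def swapMask (x : Fin 24 × Fin 24) (n : ℕ) : ℕ :=
  if n.testBit x.1.val == n.testBit x.2.val then n else n ^^^ (2 ^ x.1.val ^^^ 2 ^ x.2.val)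

/-- The action of `swaps` on masks. -/
def swapsMask : List (Fin 24 × Fin 24) → ℕ → ℕ
  | [], n => n
  | x :: l, n => swapMask x (swapsMask l n)

theorem swapMask_lt {x : Fin 24 × Fin 24} {n : ℕ} (hn : n < 2 ^ 24) : swapMask x n < 2 ^ 24 := by
  rw [swapMask]
  split
  · exact hn
  · exact Nat.xor_lt_two_pow hn (Nat.xor_lt_two_pow
      (Nat.pow_lt_pow_right (by norm_num) x.1.isLt) (Nat.pow_lt_pow_right (by norm_num) x.2.isLt))

theorem swapsMask_lt : ∀ (l : List (Fin 24 × Fin 24)) {n : ℕ}, n < 2 ^ 24 →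
    swapsMask l n < 2 ^ 24
  | [], _, hn => hn
  | _ :: l, _, hn => swapMask_lt (swapsMask_lt l hn)

theorem ofMask_two_pow (i : Fin 24) :
    CfsgLib.Golay.ofMask (2 ^ i.val) = {CfsgLib.Golay.pt i} := by
  ext p
  simp only [CfsgLib.Golay.ofMask, Finset.mem_filter, Finset.mem_univ, true_and,
    Nat.testBit_two_pow, Finset.mem_singleton, decide_eq_true_iff]
  constructor
  · intro h; rw [Fin.ext h]; exact (CfsgLib.Golay.pt_idx p).symm
  · rintro rfl; rw [CfsgLib.Golay.idx_pt]

theorem smul_swap_ofMask (x : Fin 24 × Fin 24) (n : ℕ) :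
    Equiv.swap (CfsgLib.Golay.pt x.1) (CfsgLib.Golay.pt x.2) • CfsgLib.Golay.ofMask n =
      CfsgLib.Golay.ofMask (swapMask x n) := by
  have hmem : ∀ i : Fin 24, (CfsgLib.Golay.pt i ∈ CfsgLib.Golay.ofMask n ↔ n.testBit i.val = true) :=
    fun i => by simp [CfsgLib.Golay.ofMask, CfsgLib.Golay.idx_pt]
  rw [swapMask]
  by_cases h : n.testBit x.1.val = n.testBit x.2.val
  · rw [if_pos (beq_iff_eq.mpr h)]
    ext p
    rw [← Finset.inv_smul_mem_iff, Equiv.swap_inv, Equiv.Perm.smul_def, Equiv.swap_apply_def]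
    split_ifs with h1 h2
    · rw [h1, hmem, hmem, h]
    · rw [h2, hmem, hmem, h]
    · exact Iff.rfl
  · rw [if_neg (fun hb => h (beq_iff_eq.mp hb)), CfsgLib.Golay.ofMask_xor, CfsgLib.Golay.ofMask_xor,
      ofMask_two_pow, ofMask_two_pow]
    have hne : CfsgLib.Golay.pt x.1 ≠ CfsgLib.Golay.pt x.2 := fun e => h (by
      rw [← CfsgLib.Golay.idx_pt x.1, e, CfsgLib.Golay.idx_pt])
    ext p
    rw [← Finset.inv_smul_mem_iff, Equiv.swap_inv, Equiv.Perm.smul_def, Equiv.swap_apply_def]
    simp only [Finset.mem_symmDiff, Finset.mem_singleton]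
    split_ifs with h1 h2
    · subst h1; simp only [hmem, hne, not_false_iff, and_true, true_and, or_false, Ne.symm hne]
      revert h; cases n.testBit x.1.val <;> cases n.testBit x.2.val <;> simp
    · subst h2; simp only [hmem, hne, not_false_iff, and_true, true_and, false_or, Ne.symm hne]
      revert h; cases n.testBit x.1.val <;> cases n.testBit x.2.val <;> simp
    · simp [h1, h2]

theorem swaps_ofMask : ∀ (l : List (Fin 24 × Fin 24)) (n : ℕ),
    swaps l • CfsgLib.Golay.ofMask n = CfsgLib.Golay.ofMask (swapsMask l n)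
  | [], _ => one_smul _ _
  | x :: l, n => by rw [swaps, mul_smul, swaps_ofMask l n, smul_swap_ofMask]; rfl

theorem invData_mem : ∀ k : Fin 4, ∀ l ∈ invData k, ∀ b ∈ CfsgLib.Golay.basisMasks,
    CfsgLib.Golay.inCode (swapsMask l b) = true := by
  decide +kernel

theorem invData_moves : ∀ k : Fin 4, ∀ l ∈ invData k,
    CfsgLib.Golay.inCode (swapsMask l (repMask k) ^^^ repMask k) = false := by
  decide +kernel

theorem invData_covers : ∀ k : Fin 4,
    CfsgLib.Golay.allSpan (covered k) CfsgLib.Golay.basisMasks 0 = true := by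
  decide +kernel

theorem swaps_smul (s : Finset GolayPt) : ∀ l : List (Fin 24 × Fin 24),
    (∀ x ∈ l, (CfsgLib.Golay.pt x.1 ∈ s ↔ CfsgLib.Golay.pt x.2 ∈ s)) → swaps l • s = s
  | [], _ => one_smul _ _
  | x :: l, h => by
    rw [swaps, mul_smul, swaps_smul s l fun y hy => h y (List.mem_cons_of_mem _ hy)]
    have hx := h x List.mem_cons_self
    ext p
    rw [← Finset.inv_smul_mem_iff, Equiv.swap_inv, Equiv.Perm.smul_def, Equiv.swap_apply_def]
    split_ifs with h1 h2
    · rw [h1]; exact hx.symm
    · rw [h2]; exact hx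
    · exact Iff.rfl

/-- Every coset of the code outside the code has a representative of weight at most four. -/
theorem exists_short_rep (w : Word) : ∃ v : Word, v + w ∈ golayCode ∧ (support₂ v).card ≤ 4 := by
  suffices ∀ n, ∀ w : Word, (support₂ w).card ≤ n →
      ∃ v : Word, v + w ∈ golayCode ∧ (support₂ v).card ≤ 4 from this _ w le_rfl
  intro n
  induction n using Nat.strong_induction_on with
  | _ n ih =>
    intro w hn
    by_cases h : (support₂ w).card ≤ 4
    · exact ⟨w, by rw [add_self_word]; exact golayCode.zero_mem, h⟩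
    obtain ⟨t, hts, ht⟩ := Finset.exists_subset_card_eq
      (show 5 ≤ (support₂ w).card by omega)
    obtain ⟨o, ho, hto⟩ := CfsgLib.Golay.exists_octad_superset ht
    have hoc : CfsgLib.Golay.wordOf o ∈ golayCode := CfsgLib.Golay.mem_supports_iff_wordOf.mp ho.1
    have hlt : (support₂ (w + CfsgLib.Golay.wordOf o)).card < (support₂ w).card := by
      rw [CfsgLib.Golay.support₂_add, CfsgLib.Golay.support₂_wordOf]
      have := CfsgLib.Golay.card_symmDiff_add (support₂ w) o
      have : 5 ≤ (support₂ w ∩ o).card := by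
        rw [← ht]; exact Finset.card_le_card (Finset.subset_inter hts hto)
      have := ho.2
      omega
    obtain ⟨v, hv, hv4⟩ := ih _ (lt_of_lt_of_le hlt hn) _ le_rfl
    refine ⟨v, ?_, hv4⟩
    have := golayCode.add_mem hv hoc
    rwa [add_assoc, add_assoc, add_self_word, add_zero] at this

theorem act_mul (σ τ : Equiv.Perm GolayPt) (w : Word) : act (σ * τ) w = act σ (act τ w) := rfl

/-- For a code word `u` and a word `w` outside the code some element of `M24` fixes `u` and moves
the coset of `w`. -/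
theorem exists_moving {u w : Word} (hu : u ∈ golayCode) (hw : w ∉ golayCode) :
    ∃ σ ∈ M24, act σ u = u ∧ act σ w + w ∉ golayCode := by
  classical
  obtain ⟨v, hvw, hv4⟩ := exists_short_rep w
  have hv0 : (support₂ v).card ≠ 0 := fun h => hw (by
    rw [support₂_card_eq_zero h, zero_add] at hvw; exact hvw)
  set m := (support₂ v).card with hm
  let k : Fin 4 := ⟨m - 1, by omega⟩
  -- move the short representative to the standard one
  have hrep : (CfsgLib.Golay.ofMask (repMask k)).card = m ∧ (m - 1 = k.val) := by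
    refine ⟨?_, rfl⟩
    have : ∀ j : Fin 4, (CfsgLib.Golay.ofMask (repMask j)).card = j.val + 1 := by decide +kernel
    rw [this]
    show m - 1 + 1 = m
    omega
  obtain ⟨τ, hτ, hτv⟩ : ∃ τ ∈ M24, τ • CfsgLib.Golay.ofMask (repMask k) = support₂ v := by
    set R := CfsgLib.Golay.ofMask (repMask k)
    let f : Fin m → GolayPt := fun i => ((R.equivFinOfCardEq hrep.1).symm i : GolayPt)
    let g : Fin m → GolayPt := fun i => (((support₂ v).equivFinOfCardEq hm.symm).symm i : GolayPt)
    obtain ⟨τ, hτ, hτf⟩ := exists_perm (show m ≤ 5 by omega) f g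
      (fun i j h => (R.equivFinOfCardEq hrep.1).symm.injective (Subtype.ext h))
      (fun i j h => ((support₂ v).equivFinOfCardEq hm.symm).symm.injective (Subtype.ext h))
    refine ⟨τ, hτ, Finset.eq_of_subset_of_card_le ?_ (by rw [Finset.card_smul_finset, hrep.1])⟩
    intro x hx
    obtain ⟨y, hy, rfl⟩ := Finset.mem_smul_finset.mp hx
    have : y = f (R.equivFinOfCardEq hrep.1 ⟨y, hy⟩) := by simp [f]
    rw [this, Equiv.Perm.smul_def, hτf]
    exact Finset.coe_mem _
  set u' := act τ⁻¹ u with hu'def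
  have hu' : u' ∈ golayCode := act_mem_code (inv_mem hτ) hu
  have hcov := CfsgLib.Golay.of_allSpan (invData_covers k) (CfsgLib.Golay.mem_golayCode_iff.mp hu')
  obtain ⟨l, hl, hall⟩ : ∃ l ∈ invData k,
      (l.all fun x => (CfsgLib.Golay.toMask (support₂ u')).testBit x.1.val ==
        (CfsgLib.Golay.toMask (support₂ u')).testBit x.2.val) = true := by
    rw [covered] at hcov
    split at hcov
    · rename_i l he; exact ⟨l, List.mem_of_getElem? he, hcov⟩
    · exact absurd hcov Bool.false_ne_true
  rw [List.all_eq_true] at hall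
  have hs : swaps l ∈ M24 := CfsgLib.Golay.mem_M24_iff.mpr fun b hb => by
    rw [swaps_ofMask, CfsgLib.Golay.toMask_ofMask (swapsMask_lt l ((by decide +kernel :
      ∀ b ∈ CfsgLib.Golay.basisMasks, b < 2 ^ 24) b hb))]
    exact invData_mem k l hl b hb
  have hfix : act (swaps l) u' = u' := CfsgLib.Golay.support₂_injective (by
    rw [support₂_act, swaps_smul]
    intro x hx
    have h := beq_iff_eq.mp (hall x hx)
    rw [← CfsgLib.Golay.ofMask_toMask (support₂ u')]
    simp only [CfsgLib.Golay.ofMask, Finset.mem_filter, Finset.mem_univ, true_and,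
      CfsgLib.Golay.idx_pt, h])
  set r := CfsgLib.Golay.wordOf (CfsgLib.Golay.ofMask (repMask k)) with hr
  have hτr : act τ r = v := CfsgLib.Golay.support₂_injective (by
    rw [support₂_act, hr, CfsgLib.Golay.support₂_wordOf, hτv])
  have hmove : act (swaps l) r + r ∉ golayCode := by
    rw [CfsgLib.Golay.mem_golayCode_iff, CfsgLib.Golay.support₂_add, support₂_act, hr,
      CfsgLib.Golay.support₂_wordOf, swaps_ofMask, ← CfsgLib.Golay.ofMask_xor,
      CfsgLib.Golay.toMask_ofMask (Nat.xor_lt_two_pow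
        (swapsMask_lt l ((by decide +kernel : ∀ k, repMask k < 2 ^ 24) k))
        ((by decide +kernel : ∀ k, repMask k < 2 ^ 24) k)), invData_moves k l hl]
    simp
  refine ⟨τ * swaps l * τ⁻¹, mul_mem (mul_mem hτ hs) (inv_mem hτ), ?_, ?_⟩
  · rw [act_mul, act_mul, ← hu'def, hfix, hu'def, ← act_mul, mul_inv_cancel]
    rfl
  intro hcon
  apply hmove
  have hσv : act (τ * swaps l * τ⁻¹) v = act τ (act (swaps l) r) := by
    rw [← hτr, ← act_mul, ← act_mul, inv_mul_cancel_right]
  have h2 : act (τ * swaps l * τ⁻¹) (v + w) + (v + w) ∈ golayCode :=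
    golayCode.add_mem (act_mem_code (mul_mem (mul_mem hτ hs) (inv_mem hτ)) hvw) hvw
  have h3 := golayCode.add_mem h2 hcon
  rw [map_add, show act (τ * swaps l * τ⁻¹) v + act (τ * swaps l * τ⁻¹) w + (v + w)
      + (act (τ * swaps l * τ⁻¹) w + w)
    = act (τ * swaps l * τ⁻¹) v + v + (act (τ * swaps l * τ⁻¹) w + act (τ * swaps l * τ⁻¹) w)
      + (w + w) by abel, add_self_word, add_self_word, add_zero, add_zero, hσv] at h3
  have h4 := act_mem_code (inv_mem hτ) h3
  rw [map_add, ← hτr, ← act_mul, ← act_mul, ← act_mul, inv_mul_cancel] at h4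
  rw [one_mul, show act (1 : Equiv.Perm GolayPt) r = r from rfl] at h4
  exact h4

end CfsgLib.M24Module
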