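import Cfsg.Agent.M24Module.Cocode

/-!
A linear map of the code fixing `1` and preserving the weights up to complementation agrees with an
element of `M24` modulo `1`.
-/

set_option autoImplicit false

open scoped Pointwise symmDiff

namespace CfsgLib.M24Module

open Cfsg

/-- The code words of weight 8 or 16 not orthogonal to a word. -/
noncomputable def oddMeet (v : Word) : Finset (Finset GolayPt) :=
  CfsgLib.Golay.codeSets.filter fun s => (s.card = 8 ∨ s.card = 16) ∧ Odd (s ∩ support₂ v).card

/-- The fast test for `oddMeet`. -/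
def oddMeetTest (m n : ℕ) : Bool :=
  (decide (CfsgLib.Golay.pop n = 8) || decide (CfsgLib.Golay.pop n = 16)) &&
    decide (CfsgLib.Golay.pop (n &&& m) % 2 = 1)

theorem card_oddMeet_ofMask (m : ℕ) :
    (oddMeet (CfsgLib.Golay.wordOf (CfsgLib.Golay.ofMask m))).card =
      CfsgLib.Golay.countSpan (oddMeetTest m) CfsgLib.Golay.basisMasks 0 := by
  apply CfsgLib.Golay.card_filter_codeSets
  intro n _
  simp [oddMeetTest, CfsgLib.Golay.pop_eq_card, CfsgLib.Golay.ofMask_land,
    CfsgLib.Golay.support₂_wordOf, Nat.odd_iff]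

theorem card_oddMeet_act {σ : Equiv.Perm GolayPt} (hσ : σ ∈ M24) (v : Word) :
    (oddMeet (act σ v)).card = (oddMeet v).card := by
  refine Finset.card_nbij' (fun s => σ⁻¹ • s) (fun s => σ • s) ?_ ?_
    (fun s _ => smul_inv_smul σ s) (fun s _ => inv_smul_smul σ s)
  · intro s hs
    simp only [oddMeet, Finset.coe_filter, Set.mem_ofPred_eq, CfsgLib.Golay.mem_codeSets] at hs ⊢
    refine ⟨CfsgLib.Golay.smul_mem_supports (inv_mem hσ) hs.1, ?_, ?_⟩
    · rw [Finset.card_smul_finset]; exact hs.2.1
    · have h := hs.2.2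
      rw [support₂_act, show s ∩ σ • support₂ v = σ • (σ⁻¹ • s ∩ support₂ v) by
        rw [Finset.smul_finset_inter, smul_inv_smul], Finset.card_smul_finset] at h
      exact h
  · intro s hs
    simp only [oddMeet, Finset.coe_filter, Set.mem_ofPred_eq, CfsgLib.Golay.mem_codeSets] at hs ⊢
    refine ⟨CfsgLib.Golay.smul_mem_supports hσ hs.1, ?_, ?_⟩
    · rw [Finset.card_smul_finset]; exact hs.2.1
    · rw [support₂_act, ← Finset.smul_finset_inter, Finset.card_smul_finset]; exact hs.2.2

theorem oddMeet_counts :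
    CfsgLib.Golay.countSpan (oddMeetTest (repMask 1)) CfsgLib.Golay.basisMasks 0 = 704 ∧
    CfsgLib.Golay.countSpan (oddMeetTest (repMask 3)) CfsgLib.Golay.basisMasks 0 = 768 := by
  decide +kernel

theorem card_oddMeet {v : Word} (k : Fin 4) (hv : (support₂ v).card = k.val + 1) :
    (oddMeet v).card = CfsgLib.Golay.countSpan (oddMeetTest (repMask k)) CfsgLib.Golay.basisMasks 0 := by
  set R := CfsgLib.Golay.ofMask (repMask k) with hR
  have hRc : R.card = k.val + 1 :=
    (by decide +kernel : ∀ j : Fin 4, (CfsgLib.Golay.ofMask (repMask j)).card = j.val + 1) k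
  let f : Fin (k.val + 1) → GolayPt := fun i => ((R.equivFinOfCardEq hRc).symm i : GolayPt)
  let g : Fin (k.val + 1) → GolayPt :=
    fun i => (((support₂ v).equivFinOfCardEq hv).symm i : GolayPt)
  obtain ⟨τ, hτ, hτf⟩ := exists_perm (show k.val + 1 ≤ 5 by omega) f g
    (fun i j h => (R.equivFinOfCardEq hRc).symm.injective (Subtype.ext h))
    (fun i j h => ((support₂ v).equivFinOfCardEq hv).symm.injective (Subtype.ext h))
  have hτR : τ • R = support₂ v := by
    refine Finset.eq_of_subset_of_card_le ?_ (by rw [Finset.card_smul_finset, hRc, hv])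
    intro x hx
    obtain ⟨y, hy, rfl⟩ := Finset.mem_smul_finset.mp hx
    have : y = f (R.equivFinOfCardEq hRc ⟨y, hy⟩) := by simp [f]
    rw [this, Equiv.Perm.smul_def, hτf]
    exact Finset.coe_mem _
  have e : v = act τ (CfsgLib.Golay.wordOf R) := CfsgLib.Golay.support₂_injective (by
    rw [support₂_act, CfsgLib.Golay.support₂_wordOf, hτR])
  rw [e, card_oddMeet_act hτ, card_oddMeet_ofMask]

theorem wordOf_mem {s : Finset GolayPt} (hs : s ∈ CfsgLib.Golay.codeSets) :
    CfsgLib.Golay.wordOf s ∈ golayCode :=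
  CfsgLib.Golay.mem_supports_iff_wordOf.mp (CfsgLib.Golay.mem_codeSets.mp hs)

theorem mem_oddMeet_iff {v : Word} {c : ↥golayCode} :
    support₂ (c : Word) ∈ oddMeet v ↔
      ((support₂ (c : Word)).card = 8 ∨ (support₂ (c : Word)).card = 16) ∧
        CfsgLib.Leech.dot₂ v c = 1 := by
  rw [oddMeet, Finset.mem_filter, CfsgLib.Golay.mem_codeSets, CfsgLib.Leech.dot₂_eq_card,
    Finset.inter_comm, ZMod.natCast_eq_one_iff_odd]
  exact ⟨fun h => h.2, fun h => ⟨⟨c, c.2, rfl⟩, h⟩⟩

variable {x : ↥golayCode ≃ₗ[ZMod 2] ↥golayCode}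

/-- The weight of `x c` in `{8, 16}` exactly when that of `c` is. -/
def KeepsWeight (x : ↥golayCode ≃ₗ[ZMod 2] ↥golayCode) : Prop :=
  ∀ c : ↥golayCode, ((support₂ (x c : Word)).card = 8 ∨ (support₂ (x c : Word)).card = 16) ↔
    ((support₂ (c : Word)).card = 8 ∨ (support₂ (c : Word)).card = 16)

theorem card_oddMeet_dual (hk : KeepsWeight x) {v v' : Word}
    (h : ∀ c : ↥golayCode, CfsgLib.Leech.dot₂ v (x c) = CfsgLib.Leech.dot₂ v' c) :
    (oddMeet v).card = (oddMeet v').card := by
  let toC : (s : Finset GolayPt) → s ∈ CfsgLib.Golay.codeSets → ↥golayCode :=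
    fun s hs => ⟨CfsgLib.Golay.wordOf s, wordOf_mem hs⟩
  have hmem : ∀ {w : Word} {s : Finset GolayPt}, s ∈ oddMeet w → s ∈ CfsgLib.Golay.codeSets :=
    fun hs => (Finset.mem_filter.mp hs).1
  have hsupp : ∀ s hs, support₂ (toC s hs : Word) = s := fun s hs =>
    CfsgLib.Golay.support₂_wordOf s
  have hback : ∀ (c : ↥golayCode) (hc), toC (support₂ (c : Word)) hc = c := fun c hc =>
    Subtype.ext (CfsgLib.Golay.wordOf_support₂ _)
  refine Finset.card_bij' (fun s hs => support₂ (x.symm (toC s (hmem hs)) : Word))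
    (fun s hs => support₂ (x (toC s (hmem hs)) : Word)) ?_ ?_ ?_ ?_
  · intro s hs
    rw [mem_oddMeet_iff, ← hk, ← h, LinearEquiv.apply_symm_apply, ← mem_oddMeet_iff,
      hsupp s (hmem hs)]
    exact hs
  · intro s hs
    rw [mem_oddMeet_iff, hk, h, ← mem_oddMeet_iff, hsupp s (hmem hs)]
    exact hs
  · intro s hs
    rw [hback _ (CfsgLib.Golay.mem_codeSets.mpr ⟨_, (x.symm _).2, rfl⟩),
      LinearEquiv.apply_symm_apply, hsupp s (hmem hs)]
  · intro s hs
    rw [hback _ (CfsgLib.Golay.mem_codeSets.mpr ⟨_, (x _).2, rfl⟩),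
      LinearEquiv.symm_apply_apply, hsupp s (hmem hs)]

theorem support₂_pair {p q : GolayPt} (h : p ≠ q) : support₂ (pair p q) = {p, q} := by
  ext z
  simp only [support₂, pair, Finset.mem_filter, Finset.mem_univ, true_and, Pi.add_apply,
    Pi.single_apply, Finset.mem_insert, Finset.mem_singleton]
  by_cases hp : z = p <;> by_cases hq : z = q <;> simp_all

theorem dot₂_pair (p q : GolayPt) (w : Word) :
    CfsgLib.Leech.dot₂ (pair p q) w = w p + w q := by
  simp [CfsgLib.Leech.dot₂_apply, pair, add_mul, Finset.sum_add_distrib, Pi.single_apply,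
    -Fintype.sum_option]

theorem mem_code_of_dot {v : Word} (h : ∀ c : ↥golayCode, CfsgLib.Leech.dot₂ v c = 0) :
    v ∈ golayCode := by
  refine (CfsgLib.Leech.mem_code_iff v).mpr ⟨fun t => ?_, ?_⟩
  · rw [CfsgLib.Leech.dot₂_comm]; exact h ⟨_, CfsgLib.Leech.qrWord_mem_code t⟩
  · rw [CfsgLib.Leech.dot₂_comm]; exact h ⟨_, CfsgLib.Leech.one_mem_code⟩

theorem eq_of_small {v w : Word} (h : ∀ c : ↥golayCode, CfsgLib.Leech.dot₂ v c = CfsgLib.Leech.dot₂ w c)
    (hv : (support₂ v).card + (support₂ w).card < 8) : v = w := by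
  have hc : v + w ∈ golayCode := mem_code_of_dot fun c => by
    rw [map_add, LinearMap.add_apply, h, CharTwo.add_self_eq_zero]
  have hle : (support₂ (v + w)).card < 8 := by
    have := CfsgLib.Golay.card_symmDiff_add (support₂ v) (support₂ w)
    rw [CfsgLib.Golay.support₂_add]
    omega
  have h0 : v + w = 0 := by
    by_contra h0
    exact absurd (CfsgLib.Leech.eight_le_weight hc h0) (not_le.mpr hle)
  calc v = v + (w + w) := by rw [add_self_word, add_zero]
    _ = w := by rw [← add_assoc, h0, zero_add]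

/-- The dual of `x` sends pairs to pairs. -/
theorem exists_pair (hk : KeepsWeight x)
    (h1 : ∀ e : ↥golayCode, (e : Word) = 1 → x e = e) {p q : GolayPt} (hpq : p ≠ q) :
    ∃ s : Finset GolayPt, s.card = 2 ∧ ∀ c : ↥golayCode,
      CfsgLib.Leech.dot₂ (CfsgLib.Golay.wordOf s) c = CfsgLib.Leech.dot₂ (pair p q) (x c) := by
  let g : ↥golayCode →ₗ[ZMod 2] ZMod 2 :=
    (CfsgLib.Leech.dot₂ (pair p q)).comp (golayCode.subtype.comp x.toLinearMap)
  obtain ⟨g', hg'⟩ := LinearMap.exists_extend g
  let v : Word := fun z => g' (Pi.single z 1)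
  have hv : ∀ w : Word, CfsgLib.Leech.dot₂ v w = g' w := by
    intro w
    conv_rhs => rw [pi_eq_sum_univ' w]
    rw [map_sum, CfsgLib.Leech.dot₂_apply]
    exact Finset.sum_congr rfl fun z _ => by rw [map_smul, smul_eq_mul, mul_comm]
  have hvx : ∀ c : ↥golayCode,
      CfsgLib.Leech.dot₂ v c = CfsgLib.Leech.dot₂ (pair p q) (x c) := by
    intro c
    rw [hv]
    exact LinearMap.congr_fun hg' c
  obtain ⟨u, hu, hu4⟩ := exists_short_rep v
  have hux : ∀ c : ↥golayCode,
      CfsgLib.Leech.dot₂ u c = CfsgLib.Leech.dot₂ (pair p q) (x c) := by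
    intro c
    have h0 := CfsgLib.Leech.code_orth hu c.2
    rw [map_add, LinearMap.add_apply] at h0
    rw [← hvx]
    exact CharTwo.add_eq_zero.mp h0
  refine ⟨support₂ u, ?_, fun c => by rw [CfsgLib.Golay.wordOf_support₂]; exact hux c⟩
  have heven : Even (support₂ u).card := by
    have h := hux ⟨1, CfsgLib.Leech.one_mem_code⟩
    rw [h1 _ rfl, dot₂_pair, CfsgLib.Leech.dot₂_eq_card, CfsgLib.Golay.support₂_one,
      Finset.inter_univ] at h
    rw [← ZMod.natCast_eq_zero_iff_even, h]
    exact CharTwo.add_self_eq_zero _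
  have hne : (support₂ u).card ≠ 0 := by
    intro h0
    rw [support₂_card_eq_zero h0] at hux
    have : pair p q = 0 := eq_of_small (fun c => by
      obtain ⟨c', rfl⟩ := x.surjective c
      rw [← hux c']; simp) (by
        rw [support₂_pair hpq, CfsgLib.Golay.support₂_zero, Finset.card_empty]
        have : ({p, q} : Finset GolayPt).card ≤ 2 := Finset.card_le_two
        omega)
    have := congrArg (fun w : Word => (support₂ w).card) this
    simp [support₂_pair hpq, CfsgLib.Golay.support₂_zero, Finset.card_pair hpq] at this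
  have h4 : (support₂ u).card ≠ 4 := by
    intro h4
    have h := card_oddMeet_dual hk (fun c => (hux c).symm)
    rw [card_oddMeet 1 (by rw [support₂_pair hpq, Finset.card_pair hpq]; rfl),
      card_oddMeet 3 h4, oddMeet_counts.1, oddMeet_counts.2] at h
    omega
  obtain ⟨m, hm⟩ := heven
  omega

/-- Three two-element sets meeting in exactly one point pairwise, not forming a triangle. -/
theorem mem_common {A B C : Finset GolayPt} {s : GolayPt} (hC : C.card = 2) (hs : A ∩ B = {s})
    (hA : A.card = 2) (hB : B.card = 2)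
    (hAC : (A ∩ C).card = 1) (hBC : (B ∩ C).card = 1) (hne : C ≠ A ∆ B) : s ∈ C := by
  by_contra hsC
  apply hne
  have hcard : (A ∆ B).card = 2 := by
    have := CfsgLib.Golay.card_symmDiff_add A B
    rw [hs, Finset.card_singleton] at this
    omega
  obtain ⟨a, ha⟩ := Finset.card_eq_one.mp hAC
  obtain ⟨b, hb⟩ := Finset.card_eq_one.mp hBC
  have ha' := ha.ge (Finset.mem_singleton_self a)
  have hb' := hb.ge (Finset.mem_singleton_self b)
  rw [Finset.mem_inter] at ha' hb'
  have hab : a ≠ b := by
    rintro rfl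
    have : a ∈ A ∩ B := Finset.mem_inter.mpr ⟨ha'.1, hb'.1⟩
    rw [hs, Finset.mem_singleton] at this
    exact hsC (this ▸ ha'.2)
  have hC' : ({a, b} : Finset GolayPt) = C := Finset.eq_of_subset_of_card_le
    (by simp [Finset.insert_subset_iff, ha'.2, hb'.2]) (by rw [Finset.card_pair hab, hC])
  rw [← hC']
  refine Finset.eq_of_subset_of_card_le ?_ (by rw [hcard, Finset.card_pair hab])
  intro z hz
  rw [Finset.mem_insert, Finset.mem_singleton] at hz
  rw [Finset.mem_symmDiff]
  rcases hz with rfl | rfl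
  · exact Or.inl ⟨ha'.1, fun h => hsC (by
      have : z ∈ A ∩ B := Finset.mem_inter.mpr ⟨ha'.1, h⟩
      rw [hs, Finset.mem_singleton] at this
      exact this ▸ ha'.2)⟩
  · exact Or.inr ⟨hb'.1, fun h => hsC (by
      have : z ∈ A ∩ B := Finset.mem_inter.mpr ⟨h, hb'.1⟩
      rw [hs, Finset.mem_singleton] at this
      exact this ▸ hb'.2)⟩

/-- A linear map of the code fixing `1` and keeping the weights up to complementation is induced by
an element of `M24` modulo `1`. -/
theorem exists_M24 (hk : KeepsWeight x)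
    (h1 : ∀ e : ↥golayCode, (e : Word) = 1 → x e = e) :
    ∃ σ ∈ M24, ∀ c : ↥golayCode, (x c : Word) = act σ c ∨ (x c : Word) = act σ c + 1 := by
  classical
  choose P hP2 hP using fun z : {z : GolayPt × GolayPt // z.1 ≠ z.2} =>
    exists_pair hk h1 z.2
  let img : GolayPt → GolayPt → Finset GolayPt := fun p q =>
    if h : p ≠ q then P ⟨(p, q), h⟩ else ∅
  have himg2 : ∀ p q, p ≠ q → (img p q).card = 2 := fun p q h => by
    simp only [img, dif_pos h]; exact hP2 _
  have himg : ∀ p q, p ≠ q → ∀ c : ↥golayCode,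
      CfsgLib.Leech.dot₂ (CfsgLib.Golay.wordOf (img p q)) c =
        CfsgLib.Leech.dot₂ (pair p q) (x c) := fun p q h => by
    simp only [img, dif_pos h]; exact hP _
  have huniq : ∀ p q, p ≠ q → ∀ s : Finset GolayPt, s.card ≤ 4 →
      (∀ c : ↥golayCode, CfsgLib.Leech.dot₂ (CfsgLib.Golay.wordOf s) c =
        CfsgLib.Leech.dot₂ (pair p q) (x c)) → s = img p q := by
    intro p q h s hs hsc
    rw [← CfsgLib.Golay.support₂_wordOf s, ← CfsgLib.Golay.support₂_wordOf (img p q)]
    refine congrArg support₂ (eq_of_small (fun c => ?_) ?_)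
    · rw [hsc, himg p q h]
    · rw [CfsgLib.Golay.support₂_wordOf, CfsgLib.Golay.support₂_wordOf, himg2 p q h]; omega
  have hsymm : ∀ p q, p ≠ q → img q p = img p q := fun p q h =>
    huniq p q h _ (by rw [himg2 q p (Ne.symm h)]; norm_num) fun c => by
      rw [himg q p (Ne.symm h), dot₂_pair, dot₂_pair, add_comm]
  have hword : ∀ s t : Finset GolayPt,
      CfsgLib.Golay.wordOf (s ∆ t) = CfsgLib.Golay.wordOf s + CfsgLib.Golay.wordOf t := fun s t =>
    CfsgLib.Golay.support₂_injective (by
      rw [CfsgLib.Golay.support₂_add, CfsgLib.Golay.support₂_wordOf,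
        CfsgLib.Golay.support₂_wordOf, CfsgLib.Golay.support₂_wordOf])
  have htri : ∀ p q r, p ≠ q → p ≠ r → q ≠ r → img p q ∆ img p r = img q r := by
    intro p q r hpq hpr hqr
    refine huniq q r hqr _ ?_ fun c => ?_
    · have := CfsgLib.Golay.card_symmDiff_add (img p q) (img p r)
      rw [himg2 p q hpq, himg2 p r hpr] at this
      omega
    · rw [hword, map_add, LinearMap.add_apply, himg p q hpq, himg p r hpr, dot₂_pair, dot₂_pair,
        dot₂_pair]
      calc (x c : Word) p + (x c : Word) q + ((x c : Word) p + (x c : Word) r)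
          = ((x c : Word) p + (x c : Word) p) + ((x c : Word) q + (x c : Word) r) := by ring
        _ = _ := by rw [CharTwo.add_self_eq_zero, zero_add]
  have hinter : ∀ p q r, p ≠ q → p ≠ r → q ≠ r → (img p q ∩ img p r).card = 1 := by
    intro p q r hpq hpr hqr
    have := CfsgLib.Golay.card_symmDiff_add (img p q) (img p r)
    rw [htri p q r hpq hpr hqr, himg2 q r hqr, himg2 p q hpq, himg2 p r hpr] at this
    omega
  have himg_inj : ∀ p q p' q', p ≠ q → p' ≠ q' → img p q = img p' q' →
      pair p q = pair p' q' := by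
    intro p q p' q' h h' e
    refine eq_of_small (fun c => ?_) ?_
    · obtain ⟨c', rfl⟩ := x.surjective c
      rw [← himg p q h, ← himg p' q' h', e]
    · rw [support₂_pair h, support₂_pair h', Finset.card_pair h, Finset.card_pair h']; norm_num
  have hstar : ∀ p : GolayPt, ∃ s, ∀ q, q ≠ p → s ∈ img p q := by
    intro p
    obtain ⟨a, ha⟩ := exists_ne p
    obtain ⟨b, hb⟩ : ∃ b, b ∉ ({p, a} : Finset GolayPt) :=
      ⟨_, (Finset.exists_mem_notMem_of_card_lt_card
        (show ({p, a} : Finset GolayPt).card < (Finset.univ : Finset GolayPt).card from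
          lt_of_le_of_lt Finset.card_le_two (by decide))).choose_spec.2⟩
    simp only [Finset.mem_insert, Finset.mem_singleton, not_or] at hb
    obtain ⟨s, hs⟩ := Finset.card_eq_one.mp
      (hinter p a b (Ne.symm ha) (Ne.symm hb.1) (Ne.symm hb.2))
    have hs' := hs.ge (Finset.mem_singleton_self s)
    rw [Finset.mem_inter] at hs'
    refine ⟨s, fun q hq => ?_⟩
    by_cases hqa : q = a
    · rw [hqa]; exact hs'.1
    by_cases hqb : q = b
    · rw [hqb]; exact hs'.2
    refine mem_common (himg2 p q (Ne.symm hq)) hs (himg2 p a (Ne.symm ha))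
      (himg2 p b (Ne.symm hb.1)) (hinter p a q (Ne.symm ha) (Ne.symm hq) (Ne.symm hqa))
      (hinter p b q (Ne.symm hb.1) (Ne.symm hq) (Ne.symm hqb)) ?_
    rw [htri p a b (Ne.symm ha) (Ne.symm hb.1) (Ne.symm hb.2)]
    intro h
    have := congrArg support₂ (himg_inj p q a b (Ne.symm hq) (Ne.symm hb.2) h)
    rw [support₂_pair (Ne.symm hq), support₂_pair (Ne.symm hb.2)] at this
    have hp : p ∈ ({a, b} : Finset GolayPt) := this ▸ Finset.mem_insert_self p _
    simp only [Finset.mem_insert, Finset.mem_singleton] at hp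
    rcases hp with h | h
    · exact ha h.symm
    · exact hb.1 h.symm
  choose φ hφ using hstar
  have hφinj : Function.Injective φ := by
    intro p q h
    by_contra hne
    obtain ⟨a, ha⟩ : ∃ a, a ∉ ({p, q} : Finset GolayPt) :=
      ⟨_, (Finset.exists_mem_notMem_of_card_lt_card
        (show ({p, q} : Finset GolayPt).card < (Finset.univ : Finset GolayPt).card from
          lt_of_le_of_lt Finset.card_le_two (by decide))).choose_spec.2⟩
    simp only [Finset.mem_insert, Finset.mem_singleton, not_or] at ha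
    have h1 := hφ p a ha.1
    have h2 := hφ q a ha.2
    have h3 := hφ p q (Ne.symm hne)
    have h4 := htri a p q ha.1 ha.2 hne
    rw [← h4, Finset.mem_symmDiff, hsymm p a (Ne.symm ha.1), hsymm q a (Ne.symm ha.2)] at h3
    rw [← h] at h2
    rcases h3 with ⟨-, h5⟩ | ⟨-, h5⟩
    · exact h5 h2
    · exact h5 h1
  have hφbij : Function.Bijective φ := Finite.injective_iff_bijective.mp hφinj
  have himgφ : ∀ p q, p ≠ q → img p q = {φ p, φ q} := fun p q h =>
    (Finset.eq_of_subset_of_card_le (by
      simp only [Finset.insert_subset_iff, Finset.singleton_subset_iff]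
      exact ⟨hφ p q (Ne.symm h), hsymm p q h ▸ hφ q p h⟩)
      (by rw [himg2 p q h, Finset.card_pair (fun e => h (hφinj e))])).symm
  let σ : Equiv.Perm GolayPt := (Equiv.ofBijective φ hφbij).symm
  have hσ : ∀ p, σ.symm p = φ p := fun p => rfl
  have hx : ∀ c : ↥golayCode, ∀ p q,
      (x c : Word) p + (x c : Word) q = (c : Word) (φ p) + (c : Word) (φ q) := by
    intro c p q
    by_cases h : p = q
    · subst h; rw [CharTwo.add_self_eq_zero, CharTwo.add_self_eq_zero]
    rw [← dot₂_pair, ← himg p q h, himgφ p q h,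
      ← support₂_pair (fun e => h (hφinj e)), CfsgLib.Golay.wordOf_support₂, dot₂_pair]
  have hact : ∀ c : ↥golayCode, (x c : Word) = act σ c ∨ (x c : Word) = act σ c + 1 := by
    intro c
    rcases zmod2_cases ((x c : Word) none + (c : Word) (φ none)) with h | h
    · left
      funext p
      have h2 := hx c p none
      rw [CharTwo.add_eq_zero.mp h] at h2
      exact add_right_cancel h2
    · right
      funext p
      have h2 := hx c p none
      show (x c : Word) p = (c : Word) (φ p) + 1
      rw [← h]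
      revert h2
      generalize (x c : Word) p = a
      generalize (x c : Word) none = b
      generalize (c : Word) (φ p) = d
      generalize (c : Word) (φ none) = e
      revert a b d e
      decide
  refine ⟨σ, ?_, hact⟩
  rw [CfsgLib.Golay.mem_M24_iff]
  intro b hb
  set w : ↥golayCode := ⟨_, CfsgLib.Golay.basis_mem b hb⟩
  have hmem : act σ (w : Word) ∈ golayCode := by
    rcases hact w with h | h
    · rw [← h]; exact (x w).2
    · have := golayCode.add_mem (x w).2 CfsgLib.Leech.one_mem_code
      rwa [h, add_assoc, add_self_word, add_zero] at this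
  rw [CfsgLib.Golay.mem_golayCode_iff, support₂_act] at hmem
  rwa [show support₂ (w : Word) = CfsgLib.Golay.ofMask b from CfsgLib.Golay.support₂_wordOf _] at hmem

end CfsgLib.M24Module
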